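import Cfsg.Agent.Lib.SchurMult.PSUSixTwo.Model
import Mathlib.Data.Fintype.Pi

/-!
The kernel-checked facts about the monomial subgroup `3⁴:S₆` of `PSU₆(2)`.
-/

set_option autoImplicit false
set_option Elab.async false
set_option maxRecDepth 100000
set_option synthInstance.maxSize 4000

namespace CfsgLib.SchurMult.PSUSixTwo

/-- A coded standard basis vector. -/
def bv (i : ℕ) : List ℕ := (List.range 6).map fun k => if k == i then 1 else 0

/-- The sum of the `i`th basis vector and a multiple of the `j`th. -/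
def bv₂ (i j a : ℕ) : List ℕ := (List.range 6).map fun k => if k == i then 1 else if k == j then a else 0

/-- The diagonal element with entries `w`, `w²` at two coordinates. -/
def diagW (i j : ℕ) : List (List ℕ) := [bv₂ i j 1, bv₂ i j 2]

/-- The transposition of two coordinates. -/
def swW (i j : ℕ) : List (List ℕ) := [bv₂ i j 1]

/-- The transposition of two numbers. -/
def swN (k l i : ℕ) : ℕ := if i == k then l else if i == l then k else i

/-- Two disjoint three-cycles of coordinates. -/
def cycleW (c : ℕ) : List (List ℕ) := if c == 0 then swW 0 1 ++ swW 1 2 else swW 3 4 ++ swW 4 5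

/-- The action of the cycles on coordinates. -/
def cycleN (c i : ℕ) : ℕ := if c == 0 then swN 0 1 (swN 1 2 i) else swN 3 4 (swN 4 5 i)

theorem diag_facts_three : ∀ i < 6, ∀ j < 6, i ≠ j →
    same (diagW i j ++ diagW j i) [] = true ∧ same (diagW i j ++ diagW i j ++ diagW i j) [] = true ∧
      same (swW i j ++ swW i j) [] = true ∧ same (swW i j ++ diagW j i ++ swW i j) (diagW i j) = true ∧
      ∀ l < 6, i ≠ l → j ≠ l → same (diagW i j ++ diagW j l) (diagW i l) = true := by
  decide +kernel

theorem diag_comm : ∀ i < 6, ∀ j < 6, i ≠ j → ∀ k < 6, ∀ l < 6, k ≠ l →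
    same (diagW i j ++ diagW k l) (diagW k l ++ diagW i j) = true := by
  intro i h
  interval_cases i <;> decide +kernel

theorem swap_act : ∀ k < 6, ∀ l < 6, k ≠ l → ∀ i < 6, ∀ j < 6, i ≠ j →
    swN k l i < 6 ∧ swN k l i ≠ swN k l j ∧
    same (swW k l ++ diagW i j ++ swW k l) (diagW (swN k l i) (swN k l j)) = true ∧
    same (swW k l ++ swW i j ++ swW k l) (swW (swN k l i) (swN k l j)) = true := by
  intro k h
  interval_cases k <;> decide +kernel

theorem cycle_act : ∀ c < 2, ∀ i < 6, ∀ j < 6, i ≠ j →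
    cycleN c i < 6 ∧ cycleN c i ≠ cycleN c j ∧
    same (cycleW c ++ diagW i j) (diagW (cycleN c i) (cycleN c j) ++ cycleW c) = true ∧
    same (cycleW c ++ swW i j) (swW (cycleN c i) (cycleN c j) ++ cycleW c) = true := by
  decide +kernel

theorem cycle_facts : same (cycleW 0 ++ cycleW 1) (cycleW 1 ++ cycleW 0) = true ∧
    same (cycleW 0 ++ cycleW 0 ++ cycleW 0) [] = true ∧ same (cycleW 1 ++ cycleW 1 ++ cycleW 1) [] = true ∧
    same (swW 0 1 ++ cycleW 0 ++ swW 0 1) (cycleW 0 ++ cycleW 0) = true ∧
    same (swW 0 1 ++ cycleW 1 ++ swW 0 1) (cycleW 1) = true := by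
  decide +kernel

/-- A product of powers of the diagonal generators. -/
def diagProd (e : Fin 5 → Fin 3) : List (List ℕ) :=
  (List.replicate (e 0) (diagW 0 5)).flatten ++ (List.replicate (e 1) (diagW 1 5)).flatten ++
    (List.replicate (e 2) (diagW 2 5)).flatten ++ (List.replicate (e 3) (diagW 3 5)).flatten ++
      (List.replicate (e 4) (diagW 4 5)).flatten

theorem diagProd_facts : ∀ e : Fin 5 → Fin 3, (∀ i, e i = e 0) ∨ moves (diagProd e) = true := by
  decide +kernel

/-- A product of powers of the two cycles. -/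
def cycleProd (a b : ℕ) : List (List ℕ) :=
  (List.replicate a (cycleW 0)).flatten ++ (List.replicate b (cycleW 1)).flatten

theorem cycleProd_facts : ∀ a < 3, ∀ b < 3, (cycleProd a b).all iso = true ∧
    (a = 0 ∧ b = 0 ∨ (appC (cycleProd a b) (bv 0)).getD 0 0 = 0 ∨ (appC (cycleProd a b) (bv 3)).getD 3 0 = 0) := by
  decide +kernel

theorem diag_fix : ∀ i < 6, ∀ j < 6, i ≠ j → (diagW i j).all iso = true ∧
    ∀ k < 6, ∀ a < 4, ∃ b < 4, appC (diagW i j) ((bv k).map (mulC a)) = (bv k).map (mulC b) ∧ (0 < a → 0 < b) := by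
  decide +kernel

end CfsgLib.SchurMult.PSUSixTwo
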