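import Cfsg.Agent.Lib.SchurMult.PSUSixTwo.Cert
import Mathlib.LinearAlgebra.Matrix.SpecialLinearGroup

/-!
The diagonal automorphism of `PSU₆(2)`, its effect on coded transvections, and the isomorphism of `PSU`
induced by an isomorphism of fields.
-/

set_option autoImplicit false
set_option linter.unusedSectionVars false
set_option linter.style.haveILetI false
set_option maxRecDepth 100000

namespace CfsgLib.SchurMult.PSUSixTwo

open Matrix CfsgLib.InvChar.UnitaryTVTwo

universe u v

/-- An automorphism fixes the centre. -/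
theorem map_center_mulEquiv {G H : Type*} [Group G] [Group H] (e : G ≃* H) :
    (Subgroup.center G).map (e : G →* H) = Subgroup.center H := by
  ext y
  simp only [Subgroup.mem_map, Subgroup.mem_center_iff]
  constructor
  · rintro ⟨x, hx, rfl⟩ g
    have h := congrArg e (hx (e.symm g))
    rw [map_mul, map_mul, MulEquiv.apply_symm_apply] at h
    exact h
  · intro hy
    refine ⟨e.symm y, fun g => ?_, e.apply_symm_apply y⟩
    apply e.injective
    rw [map_mul, map_mul, MulEquiv.apply_symm_apply]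
    exact hy _

theorem dC_facts : (∀ p < 21, iso (dC (pt p)) = true) ∧
    (∀ i < 5, ∀ v ∈ gw i, iso v = true ∧ iso (dC v) = true ∧ iso (dC (dC v)) = true ∧ dC (dC (dC v)) = v) := by
  decide +kernel

theorem dN_facts : (∀ p < 21, dN (dN (dN p)) = p) ∧
    ∀ l < 21, ∃ m < 21, par ((lines.getD l []).map fun p => dN (dN p)) (lines.getD m []) = true := by
  decide +kernel

variable {F : Type u} [Field F] [Fintype F]

local notation "hf" => Cfsg.hermForm 6 F 2

namespace Coord

variable (q : Coord F)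

/-- The diagonal of the twist. -/
def dv (b : Bool) : Fin 6 → F := if b then ![q.w, q.w, 1, 1, 1, 1] else ![q.w + 1, q.w + 1, 1, 1, 1, 1]

theorem dv_mul (b : Bool) (i : Fin 6) : q.dv b i * q.dv (!b) i = 1 := by
  have h : q.w * (q.w + 1) = 1 := by linear_combination q.eq + q.w * q.two
  cases b <;> fin_cases i <;> simp [dv, h, mul_comm (q.w + 1)]

theorem dv_norm (b : Bool) (i : Fin 6) : q.dv b i * q.dv b i ^ 2 = 1 := by
  have h : q.w * q.w ^ 2 = 1 := by linear_combination (q.w + 1) * q.eq + q.w * q.two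
  have h' : (q.w + 1) * (q.w + 1) ^ 2 = 1 := by linear_combination (q.w + 4) * q.eq + (2 + 4 * q.w) * q.two
  cases b <;> fin_cases i <;> simp [dv, h, h']

/-- The diagonal matrix of the twist. -/
def dM (b : Bool) : Matrix (Fin 6) (Fin 6) F := Matrix.diagonal (q.dv b)

theorem dM_mul (b : Bool) : q.dM b * q.dM (!b) = 1 := by
  rw [dM, dM, Matrix.diagonal_mul_diagonal, ← Matrix.diagonal_one]
  exact congrArg _ (funext fun i => q.dv_mul b i)

theorem herm_dM (b : Bool) (x y : Fin 6 → F) : hf (q.dM b *ᵥ x) (q.dM b *ᵥ y) = hf x y := by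
  refine Finset.sum_congr rfl fun i _ => ?_
  rw [dM, Matrix.mulVec_diagonal, Matrix.mulVec_diagonal, mul_pow]
  linear_combination (x i * y i ^ 2) * q.dv_norm b i

/-- Conjugation by the diagonal matrix. -/
def twistHom (b : Bool) : Cfsg.SU 6 F 2 →* Cfsg.SU 6 F 2 where
  toFun M := ⟨⟨q.dM b * (M.1 : Matrix (Fin 6) (Fin 6) F) * q.dM (!b), by
      rw [Matrix.det_mul, Matrix.det_mul, M.1.2, mul_one, ← Matrix.det_mul, q.dM_mul, Matrix.det_one]⟩,
    fun x y => by
      show hf ((q.dM b * (M.1 : Matrix (Fin 6) (Fin 6) F) * q.dM (!b)) *ᵥ x)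
        ((q.dM b * (M.1 : Matrix (Fin 6) (Fin 6) F) * q.dM (!b)) *ᵥ y) = hf x y
      rw [← Matrix.mulVec_mulVec, ← Matrix.mulVec_mulVec, ← Matrix.mulVec_mulVec, ← Matrix.mulVec_mulVec,
        q.herm_dM]
      exact (M.2 _ _).trans (q.herm_dM _ _ _)⟩
  map_one' := Subtype.ext (Subtype.ext (by
    show q.dM b * 1 * q.dM (!b) = 1
    rw [mul_one, q.dM_mul]))
  map_mul' M N := Subtype.ext (Subtype.ext (by
    show q.dM b * ((M.1 : Matrix (Fin 6) (Fin 6) F) * N.1) * q.dM (!b) =
      (q.dM b * (M.1 : Matrix (Fin 6) (Fin 6) F) * q.dM (!b)) * (q.dM b * (N.1 : Matrix (Fin 6) (Fin 6) F) * q.dM (!b))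
    have h := q.dM_mul (!b)
    rw [Bool.not_not] at h
    calc q.dM b * ((M.1 : Matrix (Fin 6) (Fin 6) F) * N.1) * q.dM (!b)
        = q.dM b * (M.1 : Matrix (Fin 6) (Fin 6) F) * (q.dM (!b) * q.dM b) * N.1 * q.dM (!b) := by
          simp only [h, mul_one, mul_assoc]
      _ = _ := by simp only [mul_assoc]))

theorem twistHom_val (b : Bool) (M : Cfsg.SU 6 F 2) :
    ((q.twistHom b M).1 : Matrix (Fin 6) (Fin 6) F) = q.dM b * (M.1 : Matrix (Fin 6) (Fin 6) F) * q.dM (!b) := rfl

theorem twistHom_inv (b : Bool) (M : Cfsg.SU 6 F 2) : q.twistHom (!b) (q.twistHom b M) = M := by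
  refine Subtype.ext (Subtype.ext ?_)
  show q.dM (!b) * (q.dM b * (M.1 : Matrix (Fin 6) (Fin 6) F) * q.dM (!b)) * q.dM (!!b) = M.1
  have h := q.dM_mul (!b)
  rw [Bool.not_not] at h ⊢
  rw [mul_assoc, mul_assoc (q.dM b * _), h, mul_one, ← mul_assoc, h, one_mul]

/-- The diagonal automorphism of `SU₆(2)`. -/
def twistSU : Cfsg.SU 6 F 2 ≃* Cfsg.SU 6 F 2 where
  toFun := q.twistHom true
  invFun := q.twistHom false
  left_inv := q.twistHom_inv true
  right_inv := q.twistHom_inv false
  map_mul' := map_mul _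

/-- The diagonal automorphism of `PSU₆(2)`. -/
noncomputable def twist : Cfsg.PSU 6 F 2 ≃* Cfsg.PSU 6 F 2 :=
  QuotientGroup.congr _ _ q.twistSU (map_center_mulEquiv _)

theorem act_twistSU (g : Cfsg.SU 6 F 2) (x : Fin 6 → F) :
    act (q.twistSU g) x = q.dM true *ᵥ act g (q.dM false *ᵥ x) := by
  simp only [act, CfsgLib.Geometric.ap_def]
  show ((q.twistHom true g).1 : Matrix (Fin 6) (Fin 6) F) *ᵥ x =
    q.dM true *ᵥ ((g.1 : Matrix (Fin 6) (Fin 6) F) *ᵥ (q.dM false *ᵥ x))
  rw [q.twistHom_val, Matrix.mulVec_mulVec, Matrix.mulVec_mulVec]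
  rfl

theorem vec_dC {v : List ℕ} (hv : okV v = true) : q.dM true *ᵥ q.vec v = q.vec (dC v) := by
  funext i
  rw [dM, Matrix.mulVec_diagonal]
  have h2 : q.val 2 = q.w := rfl
  have t : ∀ j, q.val (mulC 2 (v.getD j 0)) = q.w * q.val (v.getD j 0) := fun j => by
    rw [(q.val_mulC (show (2 : ℕ) < 4 by norm_num) (okV_getD hv _)).1, h2]
  simp only [List.getD_eq_getElem?_getD] at t
  fin_cases i <;> simp [vec, dC, dv, t]

theorem twist_tvS {v : List ℕ} (hv : iso v = true) (hv' : iso (dC v) = true) :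
    q.twistSU (q.tvS v) = q.tvS (dC v) := by
  have hok : okV v = true := by simp only [iso, Bool.and_eq_true] at hv; exact hv.1
  refine act_ext fun x => ?_
  rw [act_twistSU, tvS, tvS, dif_pos (q.iso_herm hv), dif_pos (q.iso_herm hv'), act_tv, act_tv,
    Matrix.mulVec_add, Matrix.mulVec_smul, ← q.vec_dC hok, Matrix.mulVec_mulVec,
    show q.dM true * q.dM false = 1 from q.dM_mul true, Matrix.one_mulVec]
  congr 2
  rw [← q.herm_dM true (q.dM false *ᵥ x) (q.vec v), Matrix.mulVec_mulVec,
    show q.dM true * q.dM false = 1 from q.dM_mul true, Matrix.one_mulVec]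

theorem twist_pel {l : List (List ℕ)} (h : ∀ v ∈ l, iso v = true ∧ iso (dC v) = true) :
    q.twist (q.pel l) = q.pel (l.map dC) := by
  show QuotientGroup.mk (q.twistSU (q.el l)) = QuotientGroup.mk (q.el (l.map dC))
  rw [el, el, map_list_prod, List.map_map, List.map_map]
  exact congrArg _ (congrArg List.prod (List.map_congr_left fun v hv => q.twist_tvS (h v hv).1 (h v hv).2))

end Coord

section Iso

variable {K : Type v} [Field K] {n k : ℕ}

/-- The map of `SU` given by an isomorphism of fields. -/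
def suHom (e : F ≃+* K) : Cfsg.SU n F k →* Cfsg.SU n K k where
  toFun M := ⟨Matrix.SpecialLinearGroup.map e.toRingHom M.1, fun x y => by
    show Cfsg.hermForm n K k ((M.1 : Matrix (Fin n) (Fin n) F).map e *ᵥ x)
      ((M.1 : Matrix (Fin n) (Fin n) F).map e *ᵥ y) = Cfsg.hermForm n K k x y
    have hx : ∀ z : Fin n → K, z = fun i => e (e.symm (z i)) := fun z => funext fun i => (e.apply_symm_apply _).symm
    have hm : ∀ z : Fin n → F, (M.1 : Matrix (Fin n) (Fin n) F).map e *ᵥ (fun i => e (z i)) =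
        fun i => e (((M.1 : Matrix (Fin n) (Fin n) F) *ᵥ z) i) := fun z => funext fun i => by
      simp [Matrix.mulVec, dotProduct, map_sum, map_mul]
    have hh : ∀ a b : Fin n → F, Cfsg.hermForm n K k (fun i => e (a i)) (fun i => e (b i)) =
        e (Cfsg.hermForm n F k a b) := fun a b => by simp [Cfsg.hermForm, map_sum, map_mul, map_pow]
    rw [hx x, hx y, hm, hm, hh, hh]
    exact congrArg e (M.2 _ _)⟩
  map_one' := Subtype.ext (map_one _)
  map_mul' M N := Subtype.ext (map_mul _ _ _)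

/-- The isomorphism of `SU` given by an isomorphism of fields. -/
def suEquiv (e : F ≃+* K) : Cfsg.SU n F k ≃* Cfsg.SU n K k where
  toFun := suHom e
  invFun M := ⟨Matrix.SpecialLinearGroup.map e.symm.toRingHom M.1, fun x y => by
    show Cfsg.hermForm n F k ((M.1 : Matrix (Fin n) (Fin n) K).map e.symm *ᵥ x)
      ((M.1 : Matrix (Fin n) (Fin n) K).map e.symm *ᵥ y) = Cfsg.hermForm n F k x y
    have hm : ∀ z : Fin n → F, (fun i => e (((M.1 : Matrix (Fin n) (Fin n) K).map e.symm *ᵥ z) i)) =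
        (M.1 : Matrix (Fin n) (Fin n) K) *ᵥ fun i => e (z i) := fun z => funext fun i => by
      simp [Matrix.mulVec, dotProduct, map_sum, map_mul]
    have hh : ∀ a b : Fin n → F, Cfsg.hermForm n K k (fun i => e (a i)) (fun i => e (b i)) =
        e (Cfsg.hermForm n F k a b) := fun a b => by simp [Cfsg.hermForm, map_sum, map_mul, map_pow]
    apply e.injective
    rw [← hh, ← hh, hm, hm]
    exact M.2 _ _⟩
  left_inv M := Subtype.ext (Subtype.ext (by ext i j; exact e.symm_apply_apply _))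
  right_inv M := Subtype.ext (Subtype.ext (by ext i j; exact e.apply_symm_apply _))
  map_mul' := map_mul _

/-- The isomorphism of `PSU` given by an isomorphism of fields. -/
noncomputable def psuCongr (e : F ≃+* K) : Cfsg.PSU n F k ≃* Cfsg.PSU n K k :=
  QuotientGroup.congr _ _ (suEquiv e) (map_center_mulEquiv _)

end Iso

end CfsgLib.SchurMult.PSUSixTwo
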