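import Cfsg.Agent.Lib.SchurMult.PSUSixTwo.Upper
import Cfsg.Agent.Lib.SchurMult.PSUSixTwo.Twist
import Cfsg.Agent.Lib.SchurMult.FibreCover
import Cfsg.Agent.Lib.SchurMult.CongrLift
import Cfsg.Agent.Lib.SporadicB.Fi22.Basic

/-!
A stem extension of `PSU₆(2)` with kernel of order twelve: the double cover coming from `Fi₂₂` pulled back with
its twist by the diagonal automorphism and with `SU₆(2)`.
-/

set_option autoImplicit false
set_option linter.unusedSectionVars false
set_option linter.style.haveILetI false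
set_option maxRecDepth 100000

namespace CfsgLib.SchurMult.PSUSixTwo

universe u

theorem code_lt : ∀ k < 23, ∀ p ∈ code k, p < 21 := by decide +kernel

theorem par_comm {l l' : List ℕ} (h : par l l' = true) : par l' l = true := by
  simp only [par, Bool.and_eq_true, List.all_eq_true, beq_iff_eq] at h ⊢
  exact ⟨⟨h.1.2, h.1.1⟩, fun x hx => (h.2 x hx).symm⟩

variable {F : Type u} [Field F] [Fintype F]

/-- No double cover carries the diagonal automorphism. -/
theorem no_lift (q : Coord F) {Δ : Type u} [Group Δ] [Finite Δ] {π : Δ →* Cfsg.PSU 6 F 2}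
    (hst : Cfsg.IsStemExtension π) (hcard : Nat.card π.ker = 2) {ψ : Δ →* Δ} (hψ : Function.Bijective ψ)
    (hψπ : ∀ x, π (ψ x) = q.twist (π x)) : False := by
  have hc := hst.2.1
  have hs := hst.1
  obtain ⟨w, hw⟩ := exists_sys (q := q) hc hs
  obtain ⟨hd3, hdl⟩ := dN_facts
  have hdlt : ∀ p < 21, dN p < 21 := fun p hp => (diag_facts p hp).1
  -- the transported system
  set w' : ℕ → Δ := fun p => ψ (w (dN (dN p))) with hw'
  have hmap : ∀ r < 21, π (ψ (w r)) = q.pel [pt (dN r)] := by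
    intro r hr
    rw [hψπ, hw.map r hr, q.twist_pel (l := [pt r]) (fun v hv => by
      rw [List.mem_singleton.1 hv]; exact ⟨(point_facts r hr).1, dC_facts.1 r hr⟩)]
    exact q.same_eq (diag_facts r hr).2
  have hconj : ∀ (g : Δ) (i : ℕ), i < 5 → π g = q.pel (gw i) → ∀ r < 21,
      g * ψ (w r) * g⁻¹ = ψ (w (actW (twistInv.getD i []) r)) := by
    intro g i hi hg r hr
    obtain ⟨h, rfl⟩ := hψ.2 g
    obtain ⟨-, ht, -, hsame, -⟩ := twist_facts i hi
    have hh : π h = q.pel (ex (twistInv.getD i [])) := by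
      apply q.twist.injective
      have hdc := dC_facts.2 i hi
      rw [← hψπ, hg, ← q.same_eq hsame, q.twist_pel (fun v hv => by
        obtain ⟨u, hu, rfl⟩ := List.mem_map.1 hv
        obtain ⟨u', hu', rfl⟩ := List.mem_map.1 hu
        obtain ⟨h1, -, h3, h4⟩ := hdc u' hu'
        exact ⟨h3, by rw [h4]; exact h1⟩), List.map_map, List.map_map]
      refine congrArg q.pel (Eq.symm ?_)
      conv_rhs => rw [← List.map_id (gw i)]
      exact List.map_congr_left fun v hv => (hdc v hv).2.2.2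
    rw [← map_inv, ← map_mul, ← map_mul, hw.toPre.conj_word hc hs ht hh hr]
  have hsys : Sys q π w' := by
    refine ⟨⟨fun p hp => ?_, fun g i hi hg p hp => ?_⟩, fun p hp => ?_, fun l hl => ?_⟩
    · show π (ψ _) = _
      rw [hmap _ (hdlt _ (hdlt p hp)), hd3 p hp]
    · show g * ψ _ * g⁻¹ = ψ _
      have hp2 := hdlt _ (hdlt p hp)
      rw [hconj g i hi hg _ hp2]
      obtain ⟨-, ht, -, -, hact⟩ := twist_facts i hi
      have h := hact (dN (dN p)) hp2
      rw [hd3 p hp] at h
      rw [← h, hd3 _ (actW_lt ht hp2)]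
    · show ψ _ * ψ _ = 1
      rw [← map_mul, hw.sq _ (hdlt _ (hdlt p hp)), map_one]
    · have h : phi w' (lines.getD l []) = ψ (phi w ((lines.getD l []).map fun p => dN (dN p))) := by
        simp only [phi, map_list_prod, List.map_map, hw']
        rfl
      obtain ⟨m, hm, hpar⟩ := hdl l hl
      rw [h, hw.phi_par hc hs hpar, hw.line m hm, map_one]
  have hψw : ∀ r < 21, ψ (w r) = w (dN r) := by
    intro r hr
    have := hw.unique hc hs hsys (dN r) (hdlt r hr)
    rw [this]
    show _ = ψ (w (dN (dN (dN r))))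
    rw [hd3 r hr]
  set h : ℕ → Δ := fun k => phi w (ovals.getD k []) with hh
  have hker : ∀ k < 3, h k ∈ π.ker := fun k hk => by
    obtain ⟨hm, h1, -⟩ := oval_facts k hk
    rw [MonoidHom.mem_ker, hh, hw.map_phi hc hs hm, q.same_eq h1, q.pel_nil]
  have hfix : ∀ z ∈ π.ker, ψ z = z := by
    intro z hz
    have hz' : ψ z ∈ π.ker := by rw [MonoidHom.mem_ker, hψπ, MonoidHom.mem_ker.1 hz, map_one]
    by_cases h1 : z = 1
    · rw [h1, map_one]
    have hne : (⟨z, hz⟩ : π.ker) ≠ 1 := fun e => h1 (congrArg Subtype.val e)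
    have hne' : (⟨ψ z, hz'⟩ : π.ker) ≠ 1 := fun e =>
      h1 (hψ.1 ((congrArg Subtype.val e).trans (map_one ψ).symm))
    obtain ⟨a, b, hab, huniv⟩ := Nat.card_eq_two_iff.1 hcard
    have hor : ∀ x : π.ker, x = a ∨ x = b := fun x => by
      have := Set.ext_iff.1 huniv x
      simpa using this
    rcases hor ⟨z, hz⟩ with e | e <;> rcases hor ⟨ψ z, hz'⟩ with e' | e' <;> rcases hor 1 with e1 | e1 <;>
      first
      | exact congrArg Subtype.val (e'.trans e.symm)
      | exact absurd (e.trans e1.symm) hne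
      | exact absurd (e'.trans e1.symm) hne'
  have hstep : ∀ k < 3, h k = h ((k + 1) % 3) := by
    intro k hk
    obtain ⟨hm, -, hpar⟩ := oval_facts k hk
    show h k = phi w (ovals.getD ((k + 1) % 3) [])
    rw [← hw.phi_par hc hs hpar]
    rw [← hfix _ (hker k hk)]
    simp only [hh, phi, map_list_prod, List.map_map]
    exact congrArg List.prod (List.map_congr_left fun r hr => hψw r (hm r hr))
  obtain ⟨hthird, hfil⟩ := third_fact
  have hsum : ∀ L : List ℕ, (∀ k ∈ L, k < 23) → phi w (L.flatMap code) =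
      ((L.filter fun k => decide (21 ≤ k)).map fun k => h (k - 21)).prod := by
    intro L hL
    induction L with
    | nil => rfl
    | cons k L ih =>
      rw [List.flatMap_cons, phi_append, ih fun j hj => hL j (List.mem_cons_of_mem _ hj)]
      by_cases h21 : 21 ≤ k
      · rw [List.filter_cons_of_pos (by simpa using h21), List.map_cons, List.prod_cons, code,
          if_neg (by omega)]
      · rw [List.filter_cons_of_neg (by simpa using h21), code, if_pos (by omega),
          hw.line k (by omega), one_mul]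
  have hprod : h 2 = h 0 * h 1 := by
    have := hsum thirdOval (by decide +kernel)
    rw [hw.phi_par hc hs hthird, hfil] at this
    exact this.trans (show h 0 * (h 1 * 1) = h 0 * h 1 by rw [mul_one])
  have h0 : h 0 = 1 := by
    have e1 := hstep 0 (by norm_num)
    have e2 := hstep 1 (by norm_num)
    norm_num at e1 e2
    rw [← e2, ← e1] at hprod
    exact left_eq_mul.1 hprod
  have h1 : h 1 = 1 := by
    have e1 := hstep 0 (by norm_num)
    norm_num at e1
    rw [← e1, h0]
  obtain ⟨z, hz⟩ : ∃ z : π.ker, z ≠ 1 := by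
    haveI := Finite.one_lt_card_iff_nontrivial.1 (show 1 < Nat.card π.ker by omega)
    exact exists_ne 1
  have hz2 : (z : Δ) ^ 2 ^ 1 = 1 := by
    have e : z ^ Nat.card π.ker = 1 := pow_card_eq_one'
    rw [hcard] at e
    rw [pow_one, ← Subgroup.coe_pow, e, Subgroup.coe_one]
  have hmem := hw.two_part hc hs hst z.2 hz2
  rw [show phi w (ovals.getD 0 []) = 1 from h0, show phi w (ovals.getD 1 []) = 1 from h1, Set.pair_eq_singleton,
    Subgroup.closure_singleton_one, Subgroup.mem_bot] at hmem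
  exact hz (Subtype.ext hmem)

/-- The pullback of a double cover with its twist has kernel of order divisible by four unless the twist lifts. -/
theorem exists_four_cover_of_no_lift {G : Type u} [Group G] {Δ : Type u} [Group Δ] [Finite Δ] {π : Δ →* G}
    (δ : G ≃* G) (hst : Cfsg.IsStemExtension π) (hperf : commutator Δ = ⊤) (hcard : Nat.card π.ker = 2)
    (hno : ∀ ψ : Δ →* Δ, Function.Bijective ψ → (∀ x, π (ψ x) = δ (π x)) → False) :
    ∃ (D : Type u) (_ : Group D) (_ : Finite D) (σ : D →* G),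
      Cfsg.IsStemExtension σ ∧ commutator D = ⊤ ∧ 4 ∣ Nat.card σ.ker := by
  set g : Δ →* G := δ.toMonoidHom.comp π with hg
  have hgk : g.ker = π.ker := by
    ext x
    simp [hg, MonoidHom.mem_ker]
  obtain ⟨D, i₁, i₂, σ, π₁, π₂, hσ, hD, hs₁, hs₂, hc₁, hc₂, hinj⟩ :=
    exists_fibre_cover π g hst.1 (δ.surjective.comp hst.1) hst.2.1 (hgk.le.trans hst.2.1) hperf hperf
  refine ⟨D, i₁, i₂, σ, hσ, hD, ?_⟩
  have hk₁ : ∀ x : σ.ker, π₁ x ∈ π.ker := fun x => by
    rw [MonoidHom.mem_ker, ← MonoidHom.comp_apply π π₁, hc₁]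
    exact x.2
  have hk₂ : ∀ x : σ.ker, π₂ x ∈ π.ker := fun x => by
    refine hgk.le ?_
    rw [MonoidHom.mem_ker, ← MonoidHom.comp_apply g π₂, hc₂]
    exact x.2
  let f : σ.ker →* π.ker × π.ker := MonoidHom.prod
    ((π₁.comp σ.ker.subtype).codRestrict π.ker hk₁) ((π₂.comp σ.ker.subtype).codRestrict π.ker hk₂)
  have h2 : 2 ∣ Nat.card σ.ker := hcard ▸ card_ker_dvd_of_comp π π₁ hs₁ hc₁
  have hf : Function.Injective f := fun x y e => Subtype.ext (hinj _ _
    (congrArg (fun p : π.ker × π.ker => (p.1 : Δ)) e) (congrArg (fun p : π.ker × π.ker => (p.2 : Δ)) e))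
  have h4 := Subgroup.card_dvd_of_injective f hf
  rw [Nat.card_prod, hcard] at h4
  by_contra hn
  have hk2 : Nat.card σ.ker = 2 := by
    have := Nat.le_of_dvd (by norm_num) h4
    generalize Nat.card σ.ker = c at h2 h4 hn this ⊢
    interval_cases c <;> omega
  have hDc : Nat.card D = Nat.card Δ := by
    rw [← σ.ker.card_mul_index, ← π.ker.card_mul_index, Subgroup.index_ker, Subgroup.index_ker,
      MonoidHom.range_eq_top.2 hσ.1, MonoidHom.range_eq_top.2 hst.1, hk2, hcard]
  have hb₁ : Function.Bijective π₁ := (Nat.bijective_iff_surjective_and_card _).2 ⟨hs₁, hDc⟩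
  have hb₂ : Function.Bijective π₂ := (Nat.bijective_iff_surjective_and_card _).2 ⟨hs₂, hDc⟩
  let e₂ := MulEquiv.ofBijective π₂ hb₂
  refine hno (π₁.comp e₂.symm.toMonoidHom) (hb₁.comp e₂.symm.bijective) fun x => ?_
  obtain ⟨y, rfl⟩ := e₂.surjective x
  show π (π₁ (e₂.symm (e₂ y))) = δ (π (π₂ y))
  rw [e₂.symm_apply_apply]
  exact (DFunLike.congr_fun hc₁ y).trans (DFunLike.congr_fun hc₂ y).symm

/-- The special unitary group as a triple cover. -/
theorem su_cover (hF : Fintype.card F = 4) :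
    commutator (Cfsg.SU 6 F 2) = ⊤ ∧ Nat.card (QuotientGroup.mk' (Subgroup.center (Cfsg.SU 6 F 2))).ker = 3 := by
  have h4 : Fintype.card F = 2 ^ 2 := by rw [hF]; norm_num
  refine ⟨CfsgLib.ClassicalForms.commutator_su_eq_top h4 (by norm_num) (by norm_num), ?_⟩
  rw [QuotientGroup.ker_mk', CfsgLib.ClassicalForms.card_center_su (by rw [Nat.card_eq_fintype_card, h4]) (by norm_num)]
  rfl

/-- A perfect stem extension with kernel of order twelve, from a perfect double cover. -/
theorem hasSchurMultiplier_of_double_cover (hF : Fintype.card F = 4) {Δ : Type u} [Group Δ] [Finite Δ]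
    {π : Δ →* Cfsg.PSU 6 F 2} (hst : Cfsg.IsStemExtension π) (hperf : commutator Δ = ⊤)
    (hcard : Nat.card π.ker = 2) :
    Cfsg.HasSchurMultiplier (Cfsg.PSU 6 F 2) (Multiplicative (ZMod 3 × ZMod 2 × ZMod 2)) := by
  obtain ⟨q⟩ := exists_coord hF
  obtain ⟨D, i₁, i₂, σ, hσ, hD, h4⟩ :=
    exists_four_cover_of_no_lift q.twist hst hperf hcard fun _ hψ hψπ => no_lift q hst hcard hψ hψπ
  obtain ⟨hsu, h3⟩ := su_cover (F := F) hF
  obtain ⟨E, j₁, j₂, τ, π₁, π₂, hτ, -, hs₁, hs₂, hc₁, hc₂, -⟩ :=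
    exists_fibre_cover σ (QuotientGroup.mk' (Subgroup.center (Cfsg.SU 6 F 2))) hσ.1
      (QuotientGroup.mk'_surjective _) hσ.2.1 (by rw [QuotientGroup.ker_mk']) hD hsu
  have hd : 12 ∣ Nat.card τ.ker := Nat.Coprime.mul_dvd_of_dvd_of_dvd (m := 4) (n := 3) (by norm_num)
    (h4.trans (card_ker_dvd_of_comp _ π₁ hs₁ hc₁)) (h3 ▸ card_ker_dvd_of_comp _ π₂ hs₂ hc₂)
  refine ⟨⟨E, j₁, j₂, τ, hτ, ?_⟩, fun Γ _ _ ρ hρ => exists_surjective hρ hF⟩
  obtain ⟨ρ, hρ⟩ := exists_surjective hτ hF
  have h12 : Nat.card (Multiplicative (ZMod 3 × ZMod 2 × ZMod 2)) = 12 := by simp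
  have hb : Function.Bijective ρ := (Nat.bijective_iff_surjective_and_card _).2
    ⟨hρ, le_antisymm (by rw [h12]; exact Nat.le_of_dvd Nat.card_pos hd) (Nat.card_le_card_of_surjective ρ hρ)⟩
  exact ⟨(MulEquiv.ofBijective ρ hb).symm⟩

/-- A non-split double cover of a perfect group is a perfect stem extension. -/
theorem stem_of_nonsplit {H P : Type*} [Group H] [Group P] (h : Cfsg.IsNonsplitDoubleCover H P)
    (hP : commutator P = ⊤) :
    ∃ π : H →* P, Cfsg.IsStemExtension π ∧ commutator H = ⊤ ∧ Nat.card π.ker = 2 := by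
  obtain ⟨h2, ⟨e⟩, hns⟩ := h
  set π : H →* P := e.toMonoidHom.comp (QuotientGroup.mk' (Subgroup.center H)) with hπ
  have hs : Function.Surjective π := e.surjective.comp (QuotientGroup.mk'_surjective _)
  have hk : π.ker = Subgroup.center H := by ext x; simp [hπ, MonoidHom.mem_ker]
  have hsup : commutator H ⊔ Subgroup.center H = ⊤ := by
    rw [← hk, ← Subgroup.comap_map_eq, map_commutator_eq_top π hs hP, Subgroup.comap_top]
  have hle : Subgroup.center H ≤ commutator H := by
    by_contra hle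
    have hinf : Subgroup.center H ⊓ commutator H = ⊥ := by
      have : Finite (Subgroup.center H) := Nat.finite_of_card_ne_zero (by omega)
      have hd : Nat.card (Subgroup.center H ⊓ commutator H : Subgroup H) ∣ 2 := h2 ▸ Subgroup.card_dvd_of_le inf_le_left
      rcases (Nat.dvd_prime Nat.prime_two).1 hd with hd | hd
      · exact Subgroup.card_eq_one.1 hd
      · exact absurd (inf_eq_left.1 (Subgroup.eq_of_le_of_card_ge inf_le_left (by omega))) hle
    exact hns _ (Subgroup.isComplement'_of_disjoint_and_mul_eq_univ (disjoint_iff.2 hinf) (by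
      rw [← Subgroup.normal_mul, sup_comm, hsup, Subgroup.coe_top]))
  have hperf : commutator H = ⊤ := by rw [← hsup, sup_eq_left.2 hle]
  exact ⟨π, ⟨hs, hk.le, by rw [hperf]; exact le_top⟩, hperf, by rw [hk, h2]⟩

/-- The Schur multiplier of `PSU₆(2)`. -/
theorem hasSchurMultiplier {K : Type u} [Field K] [Fintype K] (hK : Fintype.card K = 4) :
    Cfsg.HasSchurMultiplier (Cfsg.PSU 6 K 2) (Multiplicative (ZMod 3 × ZMod 2 × ZMod 2)) := by
  obtain ⟨F₀, i₁, i₂, hF₀, hcov⟩ := CfsgLib.SporadicB.Fi22.ww_double_cover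
  have hperf : commutator (Cfsg.PSU 6 F₀ 2) = ⊤ := by
    rw [commutator_def, ← Subgroup.map_top_of_surjective _ (QuotientGroup.mk'_surjective
      (Subgroup.center (Cfsg.SU 6 F₀ 2))), ← Subgroup.map_commutator, ← commutator_def, (su_cover hF₀).1]
  obtain ⟨π, hst, hp, hc⟩ := stem_of_nonsplit hcov hperf
  have : Finite (CfsgLib.SporadicB.Fi22.WW) :=
    Nat.finite_of_card_ne_zero (by rw [CfsgLib.SporadicB.Fi22.card_WW]; norm_num)
  exact hasSchurMultiplier_congr_lift (psuCongr (FiniteField.ringEquivOfCardEq (hF₀.trans hK.symm)))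
    (hasSchurMultiplier_of_double_cover hF₀ hst hp hc)

end CfsgLib.SchurMult.PSUSixTwo
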