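import Cfsg.Agent.Lib.SchurMult.PSUSixTwo.Sylow
import Cfsg.Agent.Lib.SchurMult.PSUSixTwo.CertThree
import Cfsg.Agent.Lib.SchurMult.Criterion
import Cfsg.Agent.Lib.SchurMult.CentralComm

/-!
In a stem extension of `PSU₆(2)` the kernel elements of three-power order lie in one cyclic group of order
dividing three: the diagonal elements have canonical lifts, fourth powers of commutators with transpositions,
which commute and satisfy all but one relation.
-/

set_option autoImplicit false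
set_option linter.unusedSectionVars false
set_option maxRecDepth 100000
set_option synthInstance.maxSize 4000

namespace CfsgLib.SchurMult.PSUSixTwo

open scoped commutatorElement

universe u v

variable {F : Type u} [Field F] [Fintype F] {Γ : Type v} [Group Γ]

theorem swN_facts : ∀ i < 6, ∀ j < 6, i ≠ j → swN i j i = j ∧ swN i j j = i ∧
    ∀ k < 6, i ≠ k → j ≠ k → swN i j k = k := by
  decide +kernel

namespace Coord

variable (q : Coord F)

theorem conj_of_same {w₁ w₂ w₃ : List (List ℕ)} (h : same (w₁ ++ w₂) (w₃ ++ w₁) = true) :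
    q.pel w₁ * q.pel w₂ * (q.pel w₁)⁻¹ = q.pel w₃ := by
  rw [mul_inv_eq_iff_eq_mul, ← q.pel_append, ← q.pel_append]; exact q.same_eq h

theorem swW_inv {k l : ℕ} (hk : k < 6) (hl : l < 6) (hkl : k ≠ l) :
    (q.pel (swW k l))⁻¹ = q.pel (swW k l) :=
  inv_eq_of_mul_eq_one_left (by
    rw [← q.pel_append]; exact (q.same_eq (diag_facts_three k hk l hl hkl).2.2.1).trans q.pel_nil)

theorem swW_conj {k l : ℕ} (hk : k < 6) (hl : l < 6) (hkl : k ≠ l) {i j : ℕ} (hi : i < 6) (hj : j < 6)
    (hij : i ≠ j) :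
    q.pel (swW k l) * q.pel (diagW i j) * (q.pel (swW k l))⁻¹ = q.pel (diagW (swN k l i) (swN k l j)) ∧
    q.pel (swW k l) * q.pel (swW i j) * (q.pel (swW k l))⁻¹ = q.pel (swW (swN k l i) (swN k l j)) := by
  obtain ⟨-, -, h1, h2⟩ := swap_act k hk l hl hkl i hi j hj hij
  rw [q.swW_inv hk hl hkl, ← q.pel_append, ← q.pel_append, ← q.pel_append, ← q.pel_append]
  exact ⟨q.same_eq h1, q.same_eq h2⟩

theorem diag_inv {i j : ℕ} (hi : i < 6) (hj : j < 6) (hij : i ≠ j) :
    (q.pel (diagW i j))⁻¹ = q.pel (diagW j i) :=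
  inv_eq_of_mul_eq_one_right (by
    rw [← q.pel_append]; exact (q.same_eq (diag_facts_three i hi j hj hij).1).trans q.pel_nil)

theorem diag_cube {i j : ℕ} (hi : i < 6) (hj : j < 6) (hij : i ≠ j) : q.pel (diagW i j) ^ 3 = 1 := by
  rw [pow_succ, pow_two, ← q.pel_append, ← q.pel_append]
  exact (q.same_eq (diag_facts_three i hi j hj hij).2.1).trans q.pel_nil

theorem pel_replicate (n : ℕ) (w : List (List ℕ)) : q.pel (List.replicate n w).flatten = q.pel w ^ n := by
  induction n with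
  | zero => rfl
  | succ n ih => rw [List.replicate_succ, List.flatten_cons, q.pel_append, ih, pow_succ']

theorem pel_diagProd (e : Fin 5 → Fin 3) : q.pel (diagProd e) = q.pel (diagW 0 5) ^ (e 0 : ℕ) *
    q.pel (diagW 1 5) ^ (e 1 : ℕ) * q.pel (diagW 2 5) ^ (e 2 : ℕ) * q.pel (diagW 3 5) ^ (e 3 : ℕ) *
      q.pel (diagW 4 5) ^ (e 4 : ℕ) := by
  simp only [diagProd, q.pel_append, q.pel_replicate]

end Coord

variable {σ : Γ →* Cfsg.PSU 6 F 2}

theorem mul_pow_eq_mod {M : Type*} [Monoid M] {x : M} (h : x ^ 3 = 1) (a b : ℕ) :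
    x ^ a * x ^ b = x ^ ((a + b) % 3) := by
  conv_lhs => rw [← pow_add, ← Nat.mod_add_div (a + b) 3, pow_add, pow_mul, h, one_pow, mul_one]

/-- The kernel elements of three-power order. -/
theorem three_part [Finite Γ] (q : Coord F) (hst : Cfsg.IsStemExtension σ) :
    ∃ c : Γ, σ c = 1 ∧ c ^ 3 = 1 ∧ ∀ z : Γ, σ z = 1 → ∀ n : ℕ, z ^ 3 ^ n = 1 → z ∈ Subgroup.zpowers c := by
  obtain ⟨hs, hc, hst_comm⟩ := hst
  choose H hH using fun p : ℕ × ℕ => hs (q.pel (diagW p.1 p.2))
  choose S hS using fun p : ℕ × ℕ => hs (q.pel (swW p.1 p.2))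
  choose C hC using fun c : ℕ => hs (q.pel (cycleW c))
  set u : ℕ → ℕ → Γ := fun i j => ⁅H (j, i), S (i, j)⁆ ^ 4 with hu
  have hσcomm : ∀ i j, i < 6 → j < 6 → i ≠ j → σ ⁅H (j, i), S (i, j)⁆ = q.pel (diagW j i) * q.pel (diagW j i) := by
    intro i j hi hj hij
    rw [map_commutatorElement, hH, hS, commutatorElement_def, q.swW_inv hi hj hij, q.diag_inv hj hi (Ne.symm hij)]
    have h := (diag_facts_three j hj i hi (Ne.symm hij)).2.2.2.1
    have hsym : q.pel (swW i j) * q.pel (diagW i j) * q.pel (swW i j) = q.pel (diagW j i) := by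
      obtain ⟨e1, -⟩ := q.swW_conj hi hj hij hi hj hij
      rw [(swN_facts i hi j hj hij).1, (swN_facts i hi j hj hij).2.1, q.swW_inv hi hj hij] at e1
      exact e1
    rw [mul_assoc (q.pel (diagW j i)) (q.pel (swW i j)), mul_assoc (q.pel (diagW j i)), hsym]
  have humap : ∀ i j, i < 6 → j < 6 → i ≠ j → σ (u i j) = q.pel (diagW i j) := by
    intro i j hi hj hij
    have h3 := q.diag_cube hj hi (Ne.symm hij)
    show σ (⁅H (j, i), S (i, j)⁆ ^ 4) = _
    rw [map_pow, hσcomm i j hi hj hij, ← pow_two, ← pow_mul, show 2 * 4 = 3 * 2 + 2 from rfl, pow_add, pow_mul,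
      h3, one_pow, one_mul, ← q.diag_inv hj hi (Ne.symm hij)]
    exact eq_inv_of_mul_eq_one_left (by rw [← pow_succ]; exact h3)
  have hequiv : ∀ (g : Γ) (π : ℕ → ℕ) (i j : ℕ),
      σ g * q.pel (diagW j i) * (σ g)⁻¹ = q.pel (diagW (π j) (π i)) →
      σ g * q.pel (swW i j) * (σ g)⁻¹ = q.pel (swW (π i) (π j)) → g * u i j * g⁻¹ = u (π i) (π j) := by
    intro g π i j e1 e2
    show g * ⁅H (j, i), S (i, j)⁆ ^ 4 * g⁻¹ = ⁅H (π j, π i), S (π i, π j)⁆ ^ 4
    rw [← conj_pow, conjugate_commutatorElement]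
    congr 1
    refine comm_eq_of_map_eq hc ?_ ?_
    · rw [map_mul, map_mul, map_inv, hH, hH]; exact e1
    · rw [map_mul, map_mul, map_inv, hS, hS]; exact e2
  have hequivS : ∀ k l i j, k < 6 → l < 6 → k ≠ l → i < 6 → j < 6 → i ≠ j →
      S (k, l) * u i j * (S (k, l))⁻¹ = u (swN k l i) (swN k l j) := by
    intro k l i j hk hl hkl hi hj hij
    refine hequiv _ (swN k l) i j ?_ ?_ <;> rw [hS]
    exacts [(q.swW_conj hk hl hkl hj hi (Ne.symm hij)).1, (q.swW_conj hk hl hkl hi hj hij).2]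
  have hequivC : ∀ c i j, c < 2 → i < 6 → j < 6 → i ≠ j → C c * u i j * (C c)⁻¹ = u (cycleN c i) (cycleN c j) := by
    intro c i j hc2 hi hj hij
    refine hequiv _ (cycleN c) i j ?_ ?_ <;> rw [hC]
    exacts [q.conj_of_same (cycle_act c hc2 j hj i hi (Ne.symm hij)).2.2.1,
      q.conj_of_same (cycle_act c hc2 i hi j hj hij).2.2.2]
  have hsym : ∀ i j, i < 6 → j < 6 → i ≠ j → u j i = (u i j)⁻¹ := by
    intro i j hi hj hij
    have h := hequivS i j i j hi hj hij hi hj hij
    rw [(swN_facts i hi j hj hij).1, (swN_facts i hi j hj hij).2.1] at h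
    rw [← h]
    show S (i, j) * ⁅H (j, i), S (i, j)⁆ ^ 4 * (S (i, j))⁻¹ = (⁅H (j, i), S (i, j)⁆ ^ 4)⁻¹
    rw [← conj_pow, ← inv_pow, commutatorElement_inv]
    congr 1
    have hs2 : S (i, j) * S (i, j) ∈ Subgroup.center Γ := hc (by
      rw [MonoidHom.mem_ker, map_mul, hS, ← q.pel_append]
      exact (q.same_eq (diag_facts_three i hi j hj hij).2.2.1).trans q.pel_nil)
    have hz := Subgroup.mem_center_iff.1 (inv_mem hs2) (H (j, i))⁻¹
    calc S (i, j) * ⁅H (j, i), S (i, j)⁆ * (S (i, j))⁻¹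
        = S (i, j) * H (j, i) * S (i, j) * ((H (j, i))⁻¹ * (S (i, j) * S (i, j))⁻¹) := by
          simp only [commutatorElement_def]; group
      _ = ⁅S (i, j), H (j, i)⁆ := by rw [hz]; simp only [commutatorElement_def]; group
  have hcube : ∀ i j, i < 6 → j < 6 → i ≠ j → u i j ^ 3 = 1 := by
    intro i j hi hj hij
    set x := ⁅H (j, i), S (i, j)⁆ with hx
    have hk : x ^ 3 ∈ σ.ker := by
      rw [MonoidHom.mem_ker, map_pow, hσcomm i j hi hj hij, ← pow_two, ← pow_mul, show 2 * 3 = 3 * 2 from rfl,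
        pow_mul, q.diag_cube hj hi (Ne.symm hij), one_pow]
    have hz := ker_comm hc hk (S (i, j))
    have h4 : (u i j) ^ 3 = (x ^ 3) ^ 4 := by
      show (x ^ 4) ^ 3 = _
      rw [← pow_mul, ← pow_mul]
    have hconj : S (i, j) * u i j ^ 3 * (S (i, j))⁻¹ = (u i j ^ 3)⁻¹ := by
      have h := hequivS i j i j hi hj hij hi hj hij
      rw [(swN_facts i hi j hj hij).1, (swN_facts i hi j hj hij).2.1, hsym i j hi hj hij] at h
      rw [← conj_pow, h, inv_pow]
    have hkc : u i j ^ 3 ∈ σ.ker := by rw [h4]; exact pow_mem hk 4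
    rw [ker_comm hc hkc, mul_inv_cancel_right] at hconj
    have h2 : (x ^ 3) ^ 4 * (x ^ 3) ^ 4 = 1 := by
      rw [← h4]; exact eq_inv_iff_mul_eq_one.1 hconj
    -- the twelfth power of a commutator with a transposition
    have hxc : S (i, j) * x * (S (i, j))⁻¹ = x⁻¹ := by
      have hs2 : S (i, j) * S (i, j) ∈ Subgroup.center Γ := hc (by
        rw [MonoidHom.mem_ker, map_mul, hS, ← q.pel_append]
        exact (q.same_eq (diag_facts_three i hi j hj hij).2.2.1).trans q.pel_nil)
      have hz' := Subgroup.mem_center_iff.1 (inv_mem hs2) (H (j, i))⁻¹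
      rw [hx, commutatorElement_inv]
      calc S (i, j) * ⁅H (j, i), S (i, j)⁆ * (S (i, j))⁻¹
          = S (i, j) * H (j, i) * S (i, j) * ((H (j, i))⁻¹ * (S (i, j) * S (i, j))⁻¹) := by
            simp only [commutatorElement_def]; group
        _ = ⁅S (i, j), H (j, i)⁆ := by rw [hz']; simp only [commutatorElement_def]; group
    have h3 : x ^ 3 * x ^ 3 = 1 := by
      have h := conj_pow (a := S (i, j)) (b := x) (i := 3)
      rw [hxc, inv_pow, ker_comm hc hk, mul_inv_cancel_right] at h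
      exact eq_inv_iff_mul_eq_one.1 h.symm
    rw [h4, show (4 : ℕ) = 2 * 2 from rfl, pow_mul, pow_two (x ^ 3), h3, one_pow]
  have hcommσ : ∀ i j k l, i < 6 → j < 6 → i ≠ j → k < 6 → l < 6 → k ≠ l →
      Commute (σ (u i j)) (σ (u k l)) := by
    intro i j k l hi hj hij hk hl hkl
    rw [humap i j hi hj hij, humap k l hk hl hkl, commute_iff_eq, ← q.pel_append, ← q.pel_append]
    exact q.same_eq (diag_comm i hi j hj hij k hk l hl hkl)
  have hkill : ∀ x y : Γ, Commute (σ x) (σ y) → x ^ 3 = 1 → ⁅x, y⁆ = ⁅x, y⁆⁻¹ → Commute x y := by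
    intro x y h h3 he
    rw [commute_iff_eq, ← commutatorElement_eq_one_iff_mul_comm]
    have e3 : ⁅x, y⁆ ^ 3 = 1 := by rw [← comm_pow_left hc h, h3, commutatorElement_one_left]
    rw [pow_succ, pow_two, eq_inv_iff_mul_eq_one.1 he, one_mul] at e3
    exact e3
  have hinvl : ∀ x y : Γ, Commute (σ x) (σ y) → ⁅x⁻¹, y⁆ = ⁅x, y⁆⁻¹ := by
    intro x y h
    have e := comm_mul_left hc (a := x⁻¹) h
    rw [inv_mul_cancel, commutatorElement_one_left] at e
    exact eq_inv_of_mul_eq_one_left e.symm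
  have hinvr : ∀ x y : Γ, Commute (σ x) (σ y) → ⁅x, y⁻¹⁆ = ⁅x, y⁆⁻¹ := by
    intro x y h
    rw [← commutatorElement_inv y⁻¹ x, hinvl y x h.symm, inv_inv, ← commutatorElement_inv y x]
    rw [inv_inv]
  have hdisj : ∀ i j k l, i < 6 → j < 6 → i ≠ j → k < 6 → l < 6 → k ≠ l → i ≠ k → i ≠ l → j ≠ k → j ≠ l →
      Commute (u i j) (u k l) := by
    intro i j k l hi hj hij hk hl hkl hik hil hjk hjl
    have hh := hcommσ i j k l hi hj hij hk hl hkl
    refine hkill _ _ hh (hcube i j hi hj hij) ?_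
    have h1 := hequivS i j i j hi hj hij hi hj hij
    have h2 := hequivS i j k l hi hj hij hk hl hkl
    obtain ⟨e1, e2, e3⟩ := swN_facts i hi j hj hij
    rw [e1, e2, hsym i j hi hj hij] at h1
    rw [e3 k hk hik hjk, e3 l hl hil hjl] at h2
    conv_lhs => rw [← comm_conj hc hh (S (i, j)), h1, h2, hinvl _ _ hh]
  have hadj : ∀ i j l, i < 6 → j < 6 → i ≠ j → l < 6 → j ≠ l → i ≠ l → Commute (u i j) (u j l) := by
    intro i j l hi hj hij hl hjl hil
    have hh := hcommσ i j j l hi hj hij hj hl hjl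
    refine hkill _ _ hh (hcube i j hi hj hij) ?_
    have h1 := hequivS i l i j hi hl hil hi hj hij
    have h2 := hequivS i l j l hi hl hil hj hl hjl
    obtain ⟨e1, e2, e3⟩ := swN_facts i hi l hl hil
    rw [e1, e3 j hj hij (Ne.symm hjl), hsym j l hj hl hjl] at h1
    rw [e3 j hj hij (Ne.symm hjl), e2, hsym i j hi hj hij] at h2
    conv_lhs => rw [← comm_conj hc hh (S (i, l)), h1, h2]
    rw [hinvl _ _ (by rw [map_inv]; exact (hh.symm.inv_right)), hinvr _ _ hh.symm, inv_inv,
      ← commutatorElement_inv]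
  have hcomm : ∀ i j k l, i < 6 → j < 6 → i ≠ j → k < 6 → l < 6 → k ≠ l → Commute (u i j) (u k l) := by
    intro i j k l hi hj hij hk hl hkl
    by_cases hjk : j = k
    · subst hjk
      by_cases hil : i = l
      · subst hil; rw [hsym i j hi hj hij]; exact (Commute.refl _).inv_right
      · exact hadj i j l hi hj hij hl hkl hil
    by_cases hil : i = l
    · subst hil; exact (hadj k i j hk hi hkl hj hij (Ne.symm hjk)).symm
    by_cases hik : i = k
    · subst hik
      by_cases hjl : j = l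
      · subst hjl; exact Commute.refl _
      · have h := hadj j i l hj hi (Ne.symm hij) hl hkl hjl
        rw [hsym i j hi hj hij] at h
        exact (Commute.inv_left_iff).1 h
    by_cases hjl : j = l
    · subst hjl
      have h := hadj i j k hi hj hij hk (Ne.symm hkl) hik
      rw [hsym k j hk hj hkl] at h
      exact (Commute.inv_right_iff).1 h
    exact hdisj i j k l hi hj hij hk hl hkl hik hil hjk hjl
  have hcocycle : ∀ i j l, i < 6 → j < 6 → i ≠ j → l < 6 → j ≠ l → i ≠ l → u i j * u j l = u i l := by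
    intro i j l hi hj hij hl hjl hil
    set z := u i j * u j l * (u i l)⁻¹ with hz
    have hzk : z ∈ σ.ker := by
      rw [MonoidHom.mem_ker, hz, map_mul, map_mul, map_inv, humap i j hi hj hij, humap j l hj hl hjl,
        humap i l hi hl hil, mul_inv_eq_one, ← q.pel_append]
      exact q.same_eq ((diag_facts_three i hi j hj hij).2.2.2.2 l hl hil hjl)
    have c1 := hcomm i j j l hi hj hij hj hl hjl
    have c2 := hcomm i j i l hi hj hij hi hl hil
    have c3 := hcomm j l i l hj hl hjl hi hl hil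
    have h3 : z ^ 3 = 1 := by
      rw [hz, (((c2.mul_left c3).inv_right)).mul_pow, c1.mul_pow, inv_pow, hcube i j hi hj hij,
        hcube j l hj hl hjl, hcube i l hi hl hil, one_mul, inv_one, one_mul]
    have hconj : S (i, l) * z * (S (i, l))⁻¹ = z⁻¹ := by
      have h1 := hequivS i l i j hi hl hil hi hj hij
      have h2 := hequivS i l j l hi hl hil hj hl hjl
      have h4 := hequivS i l i l hi hl hil hi hl hil
      obtain ⟨e1, e2, e3⟩ := swN_facts i hi l hl hil
      rw [e1, e3 j hj hij (Ne.symm hjl), hsym j l hj hl hjl] at h1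
      rw [e3 j hj hij (Ne.symm hjl), e2, hsym i j hi hj hij] at h2
      rw [e1, e2, hsym i l hi hl hil] at h4
      rw [hz, ← conj_mul, ← conj_mul, ← conj_inv, h1, h2, h4, inv_inv, mul_inv_rev, mul_inv_rev, inv_inv]
      rw [show (u j l)⁻¹ * (u i j)⁻¹ = ((u i j) * (u j l))⁻¹ by rw [mul_inv_rev]]
      exact ((c2.mul_left c3).inv_left.eq)
    rw [ker_comm hc hzk, mul_inv_cancel_right] at hconj
    rw [pow_succ, pow_two, eq_inv_iff_mul_eq_one.1 hconj, one_mul] at h3
    exact mul_inv_eq_one.1 h3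
  set a : Fin 5 → Γ := fun i => u i 5 with ha
  have hacomm : ∀ i k : Fin 5, Commute (a i) (a k) := fun i k =>
    hcomm _ _ _ _ (by omega) (by norm_num) (by omega) (by omega) (by norm_num) (by omega)
  have ha3 : ∀ i : Fin 5, a i ^ 3 = 1 := fun i => hcube _ _ (by omega) (by norm_num) (by omega)
  set W3 : Subgroup Γ := Subgroup.closure (Set.range a) with hW3
  set f : (Fin 5 → Fin 3) → Γ := fun e =>
    a 0 ^ (e 0 : ℕ) * a 1 ^ (e 1 : ℕ) * a 2 ^ (e 2 : ℕ) * a 3 ^ (e 3 : ℕ) * a 4 ^ (e 4 : ℕ) with hf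
  have hfmul : ∀ e e' : Fin 5 → Fin 3, f e * f e' = f (e + e') := by
    intro e e'
    have hpp : ∀ i k (m n : ℕ), Commute (a i ^ m) (a k ^ n) := fun i k m n => (hacomm i k).pow_pow m n
    have key : ∀ i, a i ^ (e i : ℕ) * a i ^ (e' i : ℕ) = a i ^ ((e + e') i : ℕ) := fun i => by
      rw [mul_pow_eq_mod (ha3 i), Pi.add_apply, Fin.val_add]
    simp only [hf]
    rw [← key 0, ← key 1, ← key 2, ← key 3, ← key 4]
    have m4 := ((((hpp 4 0 (e 4) (e' 0)).mul_right (hpp 4 1 (e 4) (e' 1))).mul_right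
      (hpp 4 2 (e 4) (e' 2))).mul_right (hpp 4 3 (e 4) (e' 3)))
    have m3 := (((hpp 3 0 (e 3) (e' 0)).mul_right (hpp 3 1 (e 3) (e' 1))).mul_right (hpp 3 2 (e 3) (e' 2)))
    have m2 := ((hpp 2 0 (e 2) (e' 0)).mul_right (hpp 2 1 (e 2) (e' 1)))
    have m1 := hpp 1 0 (e 1) (e' 0)
    rw [m4.mul_mul_mul_comm, m3.mul_mul_mul_comm, m2.mul_mul_mul_comm, m1.mul_mul_mul_comm]
  have hfW : ∀ e, f e ∈ W3 := fun e => by
    have h : ∀ i, a i ∈ W3 := fun i => Subgroup.subset_closure ⟨i, rfl⟩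
    exact mul_mem (mul_mem (mul_mem (mul_mem (pow_mem (h 0) _) (pow_mem (h 1) _)) (pow_mem (h 2) _))
      (pow_mem (h 3) _)) (pow_mem (h 4) _)
  have hW3f : ∀ x ∈ W3, ∃ e, f e = x := by
    intro x hx
    rw [hW3, ← Subgroup.mem_toSubmonoid, Subgroup.closure_toSubmonoid_of_finite] at hx
    induction hx using Submonoid.closure_induction_right with
    | one => exact ⟨0, by simp [hf]⟩
    | mul_right y _ t ht ih =>
      obtain ⟨i, rfl⟩ := ht
      obtain ⟨e, rfl⟩ := ih
      refine ⟨e + Pi.single i 1, ?_⟩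
      rw [← hfmul]
      congr 1
      fin_cases i <;> simp [hf, Pi.single_apply]
  have hσf : ∀ e, σ (f e) = q.pel (diagProd e) := fun e => by
    simp only [hf, map_mul, map_pow, ha, q.pel_diagProd]
    rw [humap _ _ (by omega) (by norm_num) (by omega), humap _ _ (by omega) (by norm_num) (by omega),
      humap _ _ (by omega) (by norm_num) (by omega), humap _ _ (by omega) (by norm_num) (by omega),
      humap _ _ (by omega) (by norm_num) (by omega)]
    rfl
  have hfconst : ∀ e, σ (f e) = 1 → ∀ i, e i = e 0 := fun e he =>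
    (diagProd_facts e).resolve_right fun hm => q.moves_ne hm (by rw [← hσf]; exact he)
  have hf3 : ∀ e, f e ^ 3 = 1 := fun e => by
    rw [pow_succ, pow_two, hfmul, hfmul, show e + e + e = 0 from funext fun i => by
      simp only [Pi.add_apply, Pi.zero_apply]; generalize e i = x; revert x; decide]
    simp [hf]
  set c := f (fun _ => 1) with hcdef
  have hfix : ∀ g : Γ, (∀ i : Fin 5, g * a i * g⁻¹ ∈ W3) → g ∈ Subgroup.normalizer (W3 : Set Γ) := by
    intro g hg
    refine mem_normalizer_of_forall fun x hx => ?_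
    induction hx using Subgroup.closure_induction with
    | mem y hy => obtain ⟨i, rfl⟩ := hy; exact hg i
    | one => simp
    | mul y y' _ _ h h' => rw [← conj_mul]; exact mul_mem h h'
    | inv y _ h => rw [← conj_inv]; exact inv_mem h
  have huW : ∀ i j, i < 6 → j < 6 → i ≠ j → u i j ∈ W3 := by
    intro i j hi hj hij
    by_cases hj5 : j = 5
    · subst hj5; exact Subgroup.subset_closure ⟨⟨i, by omega⟩, rfl⟩
    by_cases hi5 : i = 5
    · subst hi5
      rw [hsym j 5 hj (by norm_num) hj5]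
      exact inv_mem (Subgroup.subset_closure ⟨⟨j, by omega⟩, rfl⟩)
    rw [← hcocycle i 5 j hi (by norm_num) hi5 hj (Ne.symm hj5) hij, hsym j 5 hj (by norm_num) hj5]
    exact mul_mem (Subgroup.subset_closure ⟨⟨i, by omega⟩, rfl⟩)
      (inv_mem (Subgroup.subset_closure ⟨⟨j, by omega⟩, rfl⟩))
  have hCnorm : ∀ k, k < 2 → C k ∈ Subgroup.normalizer (W3 : Set Γ) := by
    intro k hk
    refine hfix _ fun i => ?_
    rw [ha, hequivC k i 5 hk (by omega) (by norm_num) (by omega)]
    obtain ⟨h6, hne, -, -⟩ := cycle_act k hk i (by omega) 5 (by norm_num) (by omega)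
    exact huW _ _ h6 (cycle_act k hk 5 (by norm_num) i (by omega) (by omega)).1 hne
  have hC3 : ∀ k, k < 2 → σ (C k) ^ 3 = 1 := by
    intro k hk
    rw [hC, pow_succ, pow_two, ← q.pel_append, ← q.pel_append]
    interval_cases k
    exacts [(q.same_eq cycle_facts.2.1).trans q.pel_nil, (q.same_eq cycle_facts.2.2.1).trans q.pel_nil]
  have hAB : Commute (C 0) (C 1) := by
    have hh : Commute (σ (C 0)) (σ (C 1)) := by
      rw [hC, hC, commute_iff_eq, ← q.pel_append, ← q.pel_append]; exact q.same_eq cycle_facts.1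
    rw [commute_iff_eq, ← commutatorElement_eq_one_iff_mul_comm]
    have hsi := q.swW_inv (k := 0) (l := 1) (by norm_num) (by norm_num) (by norm_num)
    have e : ⁅C 0, C 1⁆ = ⁅C 0, C 1⁆⁻¹ := by
      conv_lhs => rw [← comm_conj hc hh (S (0, 1))]
      rw [← hinvl _ _ hh]
      refine comm_eq_of_map_eq hc ?_ ?_
      · rw [map_mul, map_mul, map_inv, hS, hsi, map_inv, hC, ← q.pel_append, ← q.pel_append,
          q.same_eq cycle_facts.2.2.2.1, q.pel_append, ← hC 0]
        exact eq_inv_of_mul_eq_one_left (by rw [← pow_two, ← pow_succ]; exact hC3 0 (by norm_num))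
      · rw [map_mul, map_mul, map_inv, hS, hsi, hC, ← q.pel_append, ← q.pel_append]
        exact q.same_eq cycle_facts.2.2.2.2
    have e3 : ⁅C 0, C 1⁆ ^ 3 = 1 := by
      rw [← comm_pow_left hc hh]
      have hk : C 0 ^ 3 ∈ σ.ker := by rw [MonoidHom.mem_ker, map_pow]; exact hC3 0 (by norm_num)
      exact commutatorElement_eq_one_iff_mul_comm.2 (ker_comm hc hk (C 1)).symm
    rw [pow_succ, pow_two, eq_inv_iff_mul_eq_one.1 e, one_mul] at e3
    exact e3
  set S3 : Set Γ := Set.range a ∪ {C 0, C 1} with hS3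
  have hW3comm : ∀ x ∈ W3, ∀ y ∈ W3, x * y = y * x := by
    intro x hx y hy
    obtain ⟨e, rfl⟩ := hW3f x hx
    obtain ⟨e', rfl⟩ := hW3f y hy
    rw [hfmul, hfmul, add_comm]
  have hnorm : ∀ s ∈ S3, s ∈ Subgroup.normalizer (W3 : Set Γ) := by
    rintro s (hs' | rfl | rfl)
    · exact Subgroup.le_normalizer (Subgroup.subset_closure hs')
    · exact hCnorm 0 (by norm_num)
    · exact hCnorm 1 (by norm_num)
  have hcommS : ∀ s ∈ S3, ∀ t ∈ S3, ⁅s, t⁆ ∈ W3 := by
    have hWs : ∀ s ∈ W3, ∀ t ∈ S3, ⁅s, t⁆ ∈ W3 := fun s hs' t ht => by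
      rw [show ⁅s, t⁆ = s * (t * s⁻¹ * t⁻¹) by rw [commutatorElement_def]; group]
      exact mul_mem hs' ((Subgroup.mem_normalizer_iff.1 (hnorm t ht) _).1 (inv_mem hs'))
    intro s hs' t ht
    rcases hs' with hs' | hs'
    · exact hWs s (Subgroup.subset_closure hs') t ht
    rcases ht with ht | ht
    · rw [← commutatorElement_inv]
      exact inv_mem (hWs t (Subgroup.subset_closure ht) s (Or.inr hs'))
    have hst : Commute s t := by
      rcases hs' with rfl | rfl <;> rcases ht with rfl | rfl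
      exacts [Commute.refl _, hAB, hAB.symm, Commute.refl _]
    rw [commutatorElement_eq_one_iff_mul_comm.2 hst.eq]
    exact one_mem _
  -- the image has index prime to three
  have hfinG : Finite (Cfsg.PSU 6 F 2) := Finite.of_surjective σ hs
  set A : Subgroup (Cfsg.PSU 6 F 2) := Subgroup.closure {σ (C 0), σ (C 1)} with hA
  have hAn : A ≤ Subgroup.normalizer ((W3.map σ : Subgroup _) : Set (Cfsg.PSU 6 F 2)) := by
    rw [hA, Subgroup.closure_le]
    rintro _ (rfl | rfl) <;> refine mem_normalizer_of_forall ?_ <;> rintro _ ⟨x, hx, rfl⟩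
    · exact ⟨_, (Subgroup.mem_normalizer_iff.1 (hCnorm 0 (by norm_num)) x).1 hx, by simp⟩
    · exact ⟨_, (Subgroup.mem_normalizer_iff.1 (hCnorm 1 (by norm_num)) x).1 hx, by simp⟩
  have hAelt : ∀ x ∈ A, ∃ m < 3, ∃ n < 3, x = q.pel (cycleProd m n) := by
    intro x hx
    rw [hA, ← Subgroup.mem_toSubmonoid, Subgroup.closure_toSubmonoid_of_finite] at hx
    have hcσ : Commute (σ (C 0)) (σ (C 1)) := hAB.map σ
    induction hx using Submonoid.closure_induction_right with
    | one => exact ⟨0, by norm_num, 0, by norm_num, rfl⟩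
    | mul_right y _ t ht ih =>
      obtain ⟨m, hm, n, hn, rfl⟩ := ih
      simp only [cycleProd, q.pel_append, q.pel_replicate, ← hC]
      rcases ht with rfl | rfl
      · refine ⟨(m + 1) % 3, Nat.mod_lt _ (by norm_num), n, hn, ?_⟩
        rw [← mul_pow_eq_mod (hC3 0 (by norm_num)) m 1, pow_one, mul_assoc, mul_assoc,
          (hcσ.symm.pow_left n).eq]
      · refine ⟨m, hm, (n + 1) % 3, Nat.mod_lt _ (by norm_num), ?_⟩
        rw [← mul_pow_eq_mod (hC3 1 (by norm_num)) n 1, pow_one, mul_assoc]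
  have hdiag : ∀ e : Fin 5 → Fin 3, (diagProd e).all iso = true ∧ ∀ k < 6, ∃ b < 4, 0 < b ∧
      appC (diagProd e) (bv k) = (bv k).map (mulC b) := by
    intro e
    have hall : ∀ i < 5, ∀ n : ℕ, (List.replicate n (diagW i 5)).flatten.all iso = true ∧
        ∀ k < 6, ∀ x < 4, ∃ b < 4, (0 < x → 0 < b) ∧
          appC (List.replicate n (diagW i 5)).flatten ((bv k).map (mulC x)) = (bv k).map (mulC b) := by
      intro i hi n
      obtain ⟨hiso, hfixk⟩ := diag_fix i (by omega) 5 (by norm_num) (by omega)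
      induction n with
      | zero => exact ⟨rfl, fun k hk x hx => ⟨x, hx, id, rfl⟩⟩
      | succ n ih =>
        rw [List.replicate_succ, List.flatten_cons]
        refine ⟨by rw [List.all_append, hiso, ih.1]; rfl, fun k hk x hx => ?_⟩
        obtain ⟨b, hb, hb0, he⟩ := ih.2 k hk x hx
        obtain ⟨b', hb', he', hb0'⟩ := hfixk k hk b hb
        exact ⟨b', hb', fun h => hb0' (hb0 h), by rw [appC, List.foldr_append, ← appC, ← appC, he, he']⟩
    refine ⟨by simp only [diagProd, List.all_append, (hall _ _ _).1, (by norm_num : (0:ℕ) < 5),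
      (by norm_num : (1:ℕ) < 5), (by norm_num : (2:ℕ) < 5), (by norm_num : (3:ℕ) < 5), (by norm_num : (4:ℕ) < 5),
      Bool.and_self], fun k hk => ?_⟩
    have h1 : bv k = (bv k).map (mulC 1) := by interval_cases k <;> decide
    obtain ⟨b4, l4, p4, e4⟩ := (hall 4 (by norm_num) (e 4)).2 k hk 1 (by norm_num)
    obtain ⟨b3, l3, p3, e3⟩ := (hall 3 (by norm_num) (e 3)).2 k hk b4 l4
    obtain ⟨b2, l2, p2, e2⟩ := (hall 2 (by norm_num) (e 2)).2 k hk b3 l3
    obtain ⟨b1, l1, p1, e1⟩ := (hall 1 (by norm_num) (e 1)).2 k hk b2 l2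
    obtain ⟨b0, l0, p0, e0⟩ := (hall 0 (by norm_num) (e 0)).2 k hk b1 l1
    refine ⟨b0, l0, p0 (p1 (p2 (p3 (p4 one_pos)))), ?_⟩
    conv_lhs => rw [h1]
    simp only [diagProd, appC, List.foldr_append] at e0 e1 e2 e3 e4 ⊢
    rw [e4, e3, e2, e1, e0]
  have hinf : A ⊓ W3.map σ = ⊥ := by
    refine (Subgroup.eq_bot_iff_forall _).2 fun x hx => ?_
    obtain ⟨m, hm, n, hn, rfl⟩ := hAelt x hx.1
    obtain ⟨y, hy, hyx⟩ := hx.2
    obtain ⟨e, rfl⟩ := hW3f y hy
    rw [hσf] at hyx
    by_contra hne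
    obtain ⟨hiso, h0⟩ := cycleProd_facts m hm n hn
    have hmn : ¬ (m = 0 ∧ n = 0) := fun h => hne (by rw [h.1, h.2]; rfl)
    have hmn' := h0.resolve_left hmn
    obtain ⟨hdiso, hdk⟩ := hdiag e
    obtain ⟨e', he'⟩ : ∃ e', q.pel (diagProd e') = (q.pel (diagProd e))⁻¹ := by
      obtain ⟨e', he'⟩ := hW3f _ (inv_mem (hfW e))
      exact ⟨e', by rw [← hσf, he', map_inv, hσf]⟩
    obtain ⟨hdiso', hdk'⟩ := hdiag e'
    have h1 : q.pel (cycleProd m n ++ diagProd e') = 1 := by rw [q.pel_append, he', hyx, mul_inv_cancel]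
    obtain ⟨s, hs', hsx⟩ := q.exists_scalar_of_pel_one (by rw [List.all_append, hiso, hdiso']; rfl) h1
    have key : ∀ k, (k = 0 ∨ k = 3) → (appC (cycleProd m n) (bv k)).getD k 0 ≠ 0 := by
      intro k hk hbad
      have hk6 : k < 6 := by omega
      obtain ⟨b, hb, hb0, heb⟩ := hdk' k hk6
      have hok : okV (bv k) = true := by rcases hk with rfl | rfl <;> decide
      have e1 := hsx _ hok
      rw [appC, List.foldr_append, ← appC, ← appC, heb] at e1
      have hokb : okV ((bv k).map (mulC b)) = true := by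
        rcases hk with rfl | rfl <;> interval_cases b <;> decide
      have hv1 := (q.act_el hiso hok)
      have hv2 := (q.act_el hiso hokb)
      have hlin : q.vec (appC (cycleProd m n) ((bv k).map (mulC b))) = q.val b • q.vec (appC (cycleProd m n) (bv k)) := by
        rw [← hv2.1, q.val_smul hb hok, CfsgLib.InvChar.UnitaryTVTwo.act_smul, hv1.1]
      rw [e1] at hlin
      have := congrFun hlin ⟨k, hk6⟩
      simp only [Coord.vec, Pi.smul_apply, smul_eq_mul] at this
      rw [hbad, show q.val 0 = (0 : F) from rfl, mul_zero] at this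
      have hk' : ((bv k).map (mulC s)).getD k 0 = s := by
        rcases hk with rfl | rfl <;> rcases hs' with rfl | rfl | rfl <;> rfl
      rw [hk'] at this
      have := q.val_injective (show s < 4 by omega) (by norm_num : (0 : ℕ) < 4) this
      omega
    rcases hmn' with h | h
    exacts [key 0 (Or.inl rfl) h, key 3 (Or.inr rfl) h]
  have hcardA : Nat.card A = 9 := by
    let φ : Fin 3 × Fin 3 → A := fun p => ⟨σ (C 0) ^ (p.1 : ℕ) * σ (C 1) ^ (p.2 : ℕ),
      mul_mem (pow_mem (Subgroup.subset_closure (by simp)) _) (pow_mem (Subgroup.subset_closure (by simp)) _)⟩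
    have hφ : Function.Bijective φ := by
      refine ⟨fun p p' h => ?_, fun x => ?_⟩
      · have h' : σ (C 0) ^ (p.1 : ℕ) * σ (C 1) ^ (p.2 : ℕ) = σ (C 0) ^ (p'.1 : ℕ) * σ (C 1) ^ (p'.2 : ℕ) :=
          congrArg Subtype.val h
        have hcσ : Commute (σ (C 0)) (σ (C 1)) := hAB.map σ
        have hd : σ (C 0) ^ (((p.1 : ℕ) + 2 * p'.1) % 3) * σ (C 1) ^ (((p.2 : ℕ) + 2 * p'.2) % 3) = 1 := by
          rw [← mul_pow_eq_mod (hC3 0 (by norm_num)), ← mul_pow_eq_mod (hC3 1 (by norm_num)),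
            (hcσ.pow_pow (2 * p'.1) p.2).mul_mul_mul_comm, h',
            ← (hcσ.pow_pow (2 * p'.1) p'.2).mul_mul_mul_comm, ← pow_add, ← pow_add,
            show (p'.1 : ℕ) + 2 * p'.1 = 3 * p'.1 by omega, show (p'.2 : ℕ) + 2 * p'.2 = 3 * p'.2 by omega,
            pow_mul, pow_mul, hC3 0 (by norm_num), hC3 1 (by norm_num), one_pow, one_pow, one_mul]
        set m := ((p.1 : ℕ) + 2 * p'.1) % 3 with hm
        set n := ((p.2 : ℕ) + 2 * p'.2) % 3 with hn
        have he : q.pel (cycleProd m n) = 1 := by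
          simp only [cycleProd, q.pel_append, q.pel_replicate, ← hC]; exact hd
        obtain ⟨hiso, h0⟩ := cycleProd_facts m (Nat.mod_lt _ (by norm_num)) n (Nat.mod_lt _ (by norm_num))
        have hmn : m = 0 ∧ n = 0 := by
          refine h0.resolve_right ?_
          obtain ⟨s, hs', hsx⟩ := q.exists_scalar_of_pel_one hiso he
          rw [hsx (bv 0) (by decide), hsx (bv 3) (by decide)]
          rcases hs' with rfl | rfl | rfl <;> decide
        exact Prod.ext (Fin.ext (by omega)) (Fin.ext (by omega))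
      · obtain ⟨m, hm, n, hn, he⟩ := hAelt x x.2
        refine ⟨(⟨m, hm⟩, ⟨n, hn⟩), Subtype.ext ?_⟩
        rw [he]
        simp only [φ, cycleProd, q.pel_append, q.pel_replicate, ← hC]
    simpa using (Nat.card_eq_of_bijective φ hφ).symm
  obtain ⟨m, hm⟩ : ∃ m, Nat.card (W3.map σ) = 3 ^ m := by
    have : Fact (Nat.Prime 3) := ⟨Nat.prime_three⟩
    refine (show IsPGroup 3 (W3.map σ) from fun x => ⟨1, Subtype.ext ?_⟩).exists_card_eq
    obtain ⟨y, hy, hyx⟩ := x.2
    obtain ⟨e, rfl⟩ := hW3f y hy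
    rw [pow_one, Subgroup.coe_pow, ← hyx, ← map_pow, hf3, map_one, Subgroup.coe_one]
  have hm4 : 4 ≤ m := by
    have hinj : Function.Injective fun e : Fin 4 → Fin 3 =>
        (⟨σ (f ![e 0, e 1, e 2, e 3, 0]), Subgroup.mem_map_of_mem σ (hfW _)⟩ : W3.map σ) := by
      intro e e' h
      have h' : σ (f ![e 0, e 1, e 2, e 3, 0]) = σ (f ![e' 0, e' 1, e' 2, e' 3, 0]) := congrArg Subtype.val h
      have hd : σ (f (![e 0, e 1, e 2, e 3, 0] - ![e' 0, e' 1, e' 2, e' 3, 0])) = 1 := by
        have := hfmul (![e 0, e 1, e 2, e 3, 0] - ![e' 0, e' 1, e' 2, e' 3, 0]) ![e' 0, e' 1, e' 2, e' 3, 0]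
        rw [sub_add_cancel] at this
        have := congrArg σ this
        rwa [map_mul, h', mul_eq_right] at this
      have hc0 := hfconst _ hd 4
      funext i
      have hi := hfconst _ hd i.castSucc
      rw [← hc0] at hi
      fin_cases i <;> simpa [sub_eq_zero] using hi
    have := Nat.card_le_card_of_injective _ hinj
    rw [hm] at this
    exact (Nat.pow_le_pow_iff_right (a := 3) (by norm_num)).1 (by simpa using this)
  have hindex : ¬ 3 ∣ (Subgroup.closure (σ '' S3)).index := by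
    have hle : W3.map σ ⊔ A ≤ Subgroup.closure (σ '' S3) := by
      rw [← σ.map_closure]
      refine sup_le (Subgroup.map_mono (Subgroup.closure_mono Set.subset_union_left)) ?_
      rw [hA, Subgroup.closure_le]
      rintro _ (rfl | rfl) <;> exact Subgroup.mem_map_of_mem σ (Subgroup.subset_closure (by simp [hS3]))
    intro h3
    have h3' := h3.trans (Subgroup.index_dvd_of_le hle)
    have hcard := CfsgLib.NormalPComplement.card_sup_mul_card_inf hAn
    rw [hinf, Subgroup.card_bot, mul_one, hcardA, hm, sup_comm] at hcard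
    obtain ⟨r, rfl⟩ := Nat.exists_eq_add_of_le hm4
    have htot := (W3.map σ ⊔ A).card_mul_index
    rw [hcard, natCard_psu q.card, pow_add] at htot
    obtain ⟨s, hs'⟩ := h3'
    rw [hs'] at htot
    have : 12615680 = 3 * (3 ^ r * s) := by norm_num at htot; linarith
    omega
  refine ⟨c, ?_, hf3 (fun _ => 1), fun z hz n hn => ?_⟩
  · refine (hσf fun _ => 1).trans ?_
    exact (q.same_eq (by decide +kernel : same (diagProd fun _ => 1) [] = true)).trans q.pel_nil
  · have hzW := commutator_comap_closure_le hc S3 W3 hnorm hcommS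
      (mem_commutator_of_pow_eq_one ⟨hs, hc, hst_comm⟩ Nat.prime_three _ hindex (MonoidHom.mem_ker.2 hz) hn)
    obtain ⟨e, rfl⟩ := hW3f z hzW
    have he := hfconst e hz
    rw [show e = fun _ => e 0 from funext he]
    generalize e 0 = k
    fin_cases k
    · exact ⟨0, by simp [hf]⟩
    · exact ⟨1, by simp [hcdef]⟩
    · refine ⟨2, ?_⟩
      simp only [hcdef, zpow_ofNat, pow_two, hfmul]
      congr 1

end CfsgLib.SchurMult.PSUSixTwo
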