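import Cfsg.Agent.Lib.SchurMult.PSUSixTwo.Two
import Cfsg.Agent.Lib.SchurMult.PSUSixTwo.Three
import Cfsg.Agent.Lib.SchurMult.SmallSylow

/-!
Every stem extension of `PSU₆(2)` has kernel an image of `C₃ × C₂ × C₂`.
-/

set_option autoImplicit false
set_option linter.unusedSectionVars false
set_option linter.style.haveILetI false
set_option maxRecDepth 100000

namespace CfsgLib.SchurMult.PSUSixTwo

universe u

theorem oval_double : ∀ k < 2, par (ovals.getD k [] ++ ovals.getD k []) [] = true := by decide +kernel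

variable {F : Type u} [Field F] [Fintype F] {Γ : Type u} [Group Γ] [Finite Γ]
variable {σ : Γ →* Cfsg.PSU 6 F 2} {w : ℕ → Γ} {q : Coord F}

/-- Only the primes two and three divide the order of the kernel. -/
theorem exists_ker_card (hF : Fintype.card F = 4) (hσ : Cfsg.IsStemExtension σ) :
    ∃ a b : ℕ, Nat.card σ.ker = 2 ^ a * 3 ^ b := by
  have hfin : Finite (Cfsg.PSU 6 F 2) := Finite.of_surjective σ hσ.1
  obtain ⟨a, m, h2, hm⟩ := Nat.exists_eq_pow_mul_and_not_dvd (n := Nat.card σ.ker) Nat.card_pos.ne' 2 (by norm_num)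
  have hm0 : m ≠ 0 := fun h => h2 (h ▸ dvd_zero 2)
  obtain ⟨b, r, h3, hr⟩ := Nat.exists_eq_pow_mul_and_not_dvd (n := m) hm0 3 (by norm_num)
  refine ⟨a, b, ?_⟩
  by_contra hne
  have hr1 : r ≠ 1 := fun h => hne (by rw [hm, hr, h, mul_one])
  obtain ⟨p, hp, hpr⟩ := Nat.exists_prime_and_dvd hr1
  have hpm : p ∣ m := hr ▸ hpr.mul_left _
  have hp2 : p ≠ 2 := fun h => h2 (h ▸ hpm)
  have hp3 : p ≠ 3 := fun h => h3 (h ▸ hpr)
  refine not_dvd_card_ker_of_sq_not_dvd hσ hp ?_ (hm ▸ hpm.mul_left _)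
  rw [natCard_psu hF, show (9196830720 : ℕ) = (2 ^ 15 * 3 ^ 6) * 385 from rfl]
  intro hd
  have hc : Nat.Coprime (p ^ 2) (2 ^ 15 * 3 ^ 6) := Nat.Coprime.pow_left 2
    (Nat.Coprime.mul_right (((Nat.coprime_primes hp Nat.prime_two).2 hp2).pow_right _)
      (((Nat.coprime_primes hp Nat.prime_three).2 hp3).pow_right _))
  have h385 := hc.dvd_of_dvd_mul_left hd
  have hle := Nat.le_of_dvd (by norm_num) h385
  have hp19 : p ≤ 19 := by nlinarith
  have h5 := hp.two_le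
  interval_cases p <;> norm_num at h385

/-- The kernel is generated by elements of orders dividing two, two and three. -/
theorem ker_le_closure (hσ : Cfsg.IsStemExtension σ) (q : Coord F) :
    ∃ h₀ h₁ c : σ.ker, h₀ ^ 2 = 1 ∧ h₁ ^ 2 = 1 ∧ c ^ 3 = 1 ∧
      Subgroup.closure ({h₀, h₁, c} : Set σ.ker) = ⊤ := by
  obtain ⟨w, hw⟩ := exists_sys (q := q) hσ.2.1 hσ.1
  obtain ⟨c, hc1, hc3, hcall⟩ := three_part q hσ
  have hmem : ∀ k < 2, phi w (ovals.getD k []) ∈ σ.ker ∧ phi w (ovals.getD k []) ^ 2 = 1 := by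
    intro k hk
    obtain ⟨hm, h1, -⟩ := oval_facts k (by omega)
    refine ⟨?_, ?_⟩
    · rw [MonoidHom.mem_ker, hw.map_phi hσ.2.1 hσ.1 hm, q.same_eq h1, q.pel_nil]
    · rw [pow_two, ← phi_append, hw.phi_par hσ.2.1 hσ.1 (oval_double k hk), phi_nil]
  let h₀ : σ.ker := ⟨_, (hmem 0 (by norm_num)).1⟩
  let h₁ : σ.ker := ⟨_, (hmem 1 (by norm_num)).1⟩
  let c' : σ.ker := ⟨c, hc1⟩
  refine ⟨h₀, h₁, c', Subtype.ext (hmem 0 (by norm_num)).2, Subtype.ext (hmem 1 (by norm_num)).2,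
    Subtype.ext hc3, ?_⟩
  set M := Subgroup.closure ({h₀, h₁, c'} : Set σ.ker) with hM
  obtain ⟨a, b, hab⟩ := exists_ker_card q.card hσ
  rw [eq_top_iff]
  rintro z -
  have hz1 : z ^ (2 ^ a * 3 ^ b) = 1 := by rw [← hab]; exact pow_card_eq_one'
  have e2 : z ^ 3 ^ b ∈ M := by
    have hpow : ((z ^ 3 ^ b : σ.ker) : Γ) ^ 2 ^ a = 1 := by
      rw [← Subgroup.coe_pow, ← pow_mul, mul_comm, hz1, Subgroup.coe_one]
    have h := hw.two_part hσ.2.1 hσ.1 hσ (z ^ 3 ^ b : σ.ker).2 hpow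
    have hle : Subgroup.closure ({phi w (ovals.getD 0 []), phi w (ovals.getD 1 [])} : Set Γ) ≤
        M.map σ.ker.subtype := by
      rw [Subgroup.closure_le]
      rintro _ (rfl | rfl)
      exacts [⟨h₀, Subgroup.subset_closure (by simp), rfl⟩, ⟨h₁, Subgroup.subset_closure (by simp), rfl⟩]
    obtain ⟨y, hy, hye⟩ := hle h
    exact (Subtype.ext hye : y = z ^ 3 ^ b) ▸ hy
  have e3 : z ^ 2 ^ a ∈ M := by
    have hpow : ((z ^ 2 ^ a : σ.ker) : Γ) ^ 3 ^ b = 1 := by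
      rw [← Subgroup.coe_pow, ← pow_mul, hz1, Subgroup.coe_one]
    obtain ⟨k, hk⟩ := hcall _ (z ^ 2 ^ a : σ.ker).2 b hpow
    have : c' ^ k = z ^ 2 ^ a := Subtype.ext (by simpa using hk)
    rw [← this]
    exact zpow_mem (Subgroup.subset_closure (by simp)) k
  have hcop : Nat.Coprime (3 ^ b) (2 ^ a) := Nat.Coprime.pow b a (by norm_num)
  have hbez : (1 : ℤ) = ((3 ^ b : ℕ) : ℤ) * Nat.gcdA (3 ^ b) (2 ^ a) + ((2 ^ a : ℕ) : ℤ) * Nat.gcdB (3 ^ b) (2 ^ a) := by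
    rw [← Nat.gcd_eq_gcd_ab, hcop.gcd_eq_one, Nat.cast_one]
  rw [show z = (z ^ 3 ^ b) ^ Nat.gcdA (3 ^ b) (2 ^ a) * (z ^ 2 ^ a) ^ Nat.gcdB (3 ^ b) (2 ^ a) by
    rw [← zpow_natCast z, ← zpow_natCast z, ← zpow_mul, ← zpow_mul, ← zpow_add, ← hbez, zpow_one]]
  exact mul_mem (zpow_mem e2 _) (zpow_mem e3 _)

/-- The bound. -/
theorem exists_surjective (hσ : Cfsg.IsStemExtension σ) (hF : Fintype.card F = 4) :
    ∃ π : Multiplicative (ZMod 3 × ZMod 2 × ZMod 2) →* σ.ker, Function.Surjective π := by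
  obtain ⟨q⟩ := exists_coord hF
  obtain ⟨u, v, c, hu, hv, hc, htop⟩ := ker_le_closure hσ q
  letI : CommGroup σ.ker :=
    { mul_comm := fun a b => Subtype.ext (ker_comm hσ.2.1 b.2 (a : Γ)) }
  let lift : ∀ n : ℕ, ∀ g : σ.ker, g ^ n = 1 → (ZMod n →+ Additive σ.ker) := fun n g h =>
    ZMod.lift n ⟨zmultiplesHom (Additive σ.ker) (Additive.ofMul g), by
      apply Additive.toMul.injective
      simpa [zmultiplesHom_apply] using h⟩
  let f := (lift 3 c hc).coprod ((lift 2 u hu).coprod (lift 2 v hv))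
  refine ⟨AddMonoidHom.toMultiplicativeLeft f, ?_⟩
  rw [← MonoidHom.range_eq_top, eq_top_iff, ← htop, Subgroup.closure_le]
  rintro _ (rfl | rfl | rfl)
  · exact ⟨Multiplicative.ofAdd (0, ((1 : ℤ) : ZMod 2), 0), by simp [f, lift, zmultiplesHom_apply, -Int.cast_one]⟩
  · exact ⟨Multiplicative.ofAdd (0, 0, ((1 : ℤ) : ZMod 2)), by simp [f, lift, zmultiplesHom_apply, -Int.cast_one]⟩
  · exact ⟨Multiplicative.ofAdd (((1 : ℤ) : ZMod 3), 0, 0), by simp [f, lift, zmultiplesHom_apply, -Int.cast_one]⟩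

end CfsgLib.SchurMult.PSUSixTwo
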